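import Cfsg.Agent.Lib.ToddCox.M11C1.Cert
import Cfsg.Agent.Lib.ToddCox.M11T.Main
import Cfsg.Agent.Lib.ToddCox.Final
set_option autoImplicit false
set_option maxRecDepth 100000
namespace Cfsg.Agent.Lib.ToddCox.M11C1

abbrev gen : ℕ → PresentedGroup Cfsg.Agent.Lib.ToddCox.M11T.rels := genP Cfsg.Agent.Lib.ToddCox.M11T.rels Cfsg.Agent.Lib.ToddCox.M11T.LT

theorem t3 : ∀ w ∈ Rb, w ∈ Cfsg.Agent.Lib.ToddCox.M11T.RL.map (relW Cfsg.Agent.Lib.ToddCox.M11T.sg) ∨ freeVal Cfsg.Agent.Lib.ToddCox.M11T.LT w = 1 := by decide +kernel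
theorem t8 : ∀ w ∈ Rb, ∀ a ∈ w, a ∈ Js ∨ ∃ b ∈ Js, inv b = a := by decide +kernel
theorem t9 : ∀ y ∈ Jp, y ∈ Js := by decide +kernel
theorem t10 : ∀ y ∈ Hl, y ∈ Jp := by decide +kernel
theorem t11 : ∀ y ∈ Js, y ∈ ys := by decide +kernel

theorem le : letSub gen Jp ≤ letSub gen Js := letSub_le (fun y hy => mem_letSub (t9 y hy))

theorem step : 0 < ((letSub gen Jp).subgroupOf (letSub gen Js)).index ∧
    ((letSub gen Jp).subgroupOf (letSub gen Js)).index ≤ 5 :=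
  sub_index_le inv Cfsg.Agent.Lib.ToddCox.M11T.letters.genInv Js Jp (fun y hy => mem_letSub (t9 y hy)) Eo W isH (fun y hy => invOf_lt _ hy) Eo_lt
    (genP_id (by decide +kernel)) Rb (fun w hw => Cfsg.Agent.Lib.ToddCox.M11T.letters.word (t3 w hw))
    (fun w hw a ha => mem_letSub_inv Cfsg.Agent.Lib.ToddCox.M11T.letters.genInv (t8 w hw a ha)) nW W_ge sp words
    (fun y h => t10 y (List.elem_iff.mp h)) defs covered (by decide) cF cF_zero cF_lt ys t11 links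

end Cfsg.Agent.Lib.ToddCox.M11C1
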